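import Cfsg.Agent.Lib.Golay.Mathieu
import Cfsg.Agent.Lib.Golay.ProjPerm

/-!
The stabiliser of three points in `M24` is `PSL(3, 4)`.
-/

set_option autoImplicit false

namespace Cfsg.Lib.Golay

open Cfsg.Lib.PC Equiv Matrix

/-- homogeneous coordinates of the 21 points other than `∞, 0, 1` -/
def vec21 (a : GolayPt) : Fin 3 → F4 := fun j => F4.dec (app 2 271647878554819795264304336124247729569792 (3 * idx a + j))

/-- the 21 points other than `∞, 0, 1` -/
def P21 (a : GolayPt) : Prop := tb 8388611 (idx a) = false

instance decP21 : DecidablePred P21 := fun a => inferInstanceAs (Decidable (tb 8388611 (idx a) = false))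

def tabT21 : List ℕ :=
  [984818244535754528103549039458486304, 984818244535754528103549039458486304,
   984818244535754528103549039458486304, 984818244535754528103549039458486304,
   984818244535754528103549039458486304, 984370798342469428377360417207715872,
   984674686509231270848998217272133664, 984522237791282842243827263779473440,
   984818244535754528103549039458486304, 976908108085554797803774220334904352,
   958572796407684634971422541721229344, 972689358314341295732538083389849632,
   984818244535754528103549039458486304, 971592882964418941354553515258775584,
   983548720921252936276249910206105632, 975346028712660580592452217730074656,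
   984818244535754528103549039458486304, 984818244535754528103549039458486304,
   984818244535754528103549039458486304, 984818244535754528103549039458486304,
   984818244535754528103549039458486304, 975366630392323105260605610366440480,
   971594099268302134235014375640515616, 983560732202510771760283209707927584,
   984818244535754528103549039458486304, 976448692869377735270425038196672544,
   972512676110088067912772961567868960, 961365507626256404119956257276790816,
   984818244535754528103549039458486304, 984202951082164080105044112956360736,
   984724508489452699215480746259449888, 984235865005994746954145143334668320,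
   984818244535754528103549039458486304, 984818244535754528103549039458486304,
   984818244535754528103549039458486304, 984818244535754528103549039458486304]

def tabD21 : List ℕ :=
  [984818244535754528103549039458486304, 984818244535754528103549039458486304,
   984818244535754528103549039458486304, 984818244535754528103549039458486304,
   984818244535754528103549039458486304, 984818244535754528103549039458486304,
   976531636853126291160407323722221600, 972606645568131968584696805283956768,
   984818244535754528103549039458486304, 984818244535754528103549039458486304,
   972606645568131968584696805283956768, 976531636853126291160407323722221600,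
   984818244535754528103549039458486304, 984818244535754528103549039458486304,
   972606645568131968584696805283956768, 976531636853126291160407323722221600,
   984818244535754528103549039458486304, 984818244535754528103549039458486304,
   984818244535754528103549039458486304, 984818244535754528103549039458486304,
   984818244535754528103549039458486304, 984818244535754528103549039458486304,
   976531636853126291160407323722221600, 972606645568131968584696805283956768,
   984818244535754528103549039458486304, 984818244535754528103549039458486304,
   976531636853126291160407323722221600, 972606645568131968584696805283956768,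
   984818244535754528103549039458486304, 984818244535754528103549039458486304,
   972606645568131968584696805283956768, 976531636853126291160407323722221600,
   984818244535754528103549039458486304, 984818244535754528103549039458486304,
   984818244535754528103549039458486304, 984818244535754528103549039458486304]

/-- the code `p` describes the action of the matrix `A` on the 21 points -/
def Acts21 (A : Matrix (Fin 3) (Fin 3) F4) (p : ℕ) : Prop :=
  ∀ a : GolayPt, (¬ P21 a → app 5 p (idx a) = idx a) ∧ (P21 a → app 5 p (idx a) < 24 ∧
    P21 (pt (app 5 p (idx a))) ∧ ∃ c : F4, c • vec21 (pt (app 5 p (idx a))) = A *ᵥ vec21 a)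

instance decActs21 (A : Matrix (Fin 3) (Fin 3) F4) (p : ℕ) : Decidable (Acts21 A p) := by
  unfold Acts21; infer_instance

theorem actsT21 : ∀ (i j : Fin 3) (c : F4), i ≠ j →
    Acts21 (1 + single i j c) (nth (idc 5 24) tabT21 (12 * i + 4 * j + c.enc)) := by
  decide +kernel

theorem actsD21 : ∀ (i j : Fin 3) (c : F4), i ≠ j → c ≠ 0 →
    Acts21 (diagonal fun k => if k = i then c else if k = j then c * c else 1)
      (nth (idc 5 24) tabD21 (12 * i + 4 * j + c.enc)) := by
  decide +kernel

theorem tab21_ok : allL (tabT21 ++ tabD21) (fun p => isM24 p && respects [] 8388611 p) = true := by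
  decide +kernel

theorem I_tab21 : ∀ p ∈ tabT21 ++ tabD21, I (stabG [] 8388611) p := by
  intro p hp
  have := (allL_iff _ _).mp tab21_ok p hp
  rw [Bool.and_eq_true] at this
  exact I_stabG (I_M24 this.1) this.2

def chainL34 : List Level :=
  [⟨2, [], [984370798342469428377360417207715872, 975366630392323105260605610366440480, 972512676110088067912772961567868960], 5⟩,
   ⟨3, [], [972630874432031191888138495104223264, 962426345101584057819799759800141856], 4⟩,
   ⟨4, [8536111], [979037747421335847153138073498388512, 972606645568131968584696805283956768, 970452748381697609285226999098476576], 3⟩,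
   ⟨5, [], [972606645568131968584696805283956768], 2⟩] ++ tail24

def progL34 : List (ℕ × ℕ) :=
  [(0, 2), (2, 1), (0, 3), (0, 5), (0, 4), (0, 7), (0, 7), (0, 7), (0, 10), (0, 10),
   (9, 0), (0, 10), (0, 2), (0, 3), (0, 13), (0, 14), (0, 6), (7, 16), (0, 8), (0, 9),
   (0, 19), (0, 11), (0, 12), (0, 22), (12, 23), (0, 24)]

theorem exists_psl34_hom : ∃ Φ : ProjectiveSpecialLinearGroup (Fin 3) F4 →* Perm GolayPt,
    Function.Injective Φ ∧ Φ.range = stabG [] 8388611 := by
  obtain ⟨Φ, hΦ, h⟩ := exists_psl_permHom P21 vec21 (by decide +kernel) (by decide +kernel)
    (by decide +kernel)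
  have hR : ∀ (A : SpecialLinearGroup (Fin 3) F4) (p : ℕ), Acts21 A.1 p → R p (Φ A) := by
    intro A p hA a
    show idx _ = app 5 p (idx a)
    by_cases ha : P21 a
    · obtain ⟨h1, h2, c, hc⟩ := (hA a).2 ha
      rw [(h A a).2 _ ha h2 c hc, idx_pt h1]
    · rw [(h A a).1 ha, (hA a).1 ha]
  have hmem : ∀ (A : SpecialLinearGroup (Fin 3) F4) (p : ℕ), Acts21 A.1 p →
      I (stabG [] 8388611) p → Φ A ∈ stabG [] 8388611 := by
    rintro A p hA ⟨g, hg, hr⟩
    rwa [(hR A p hA).unique hr]
  have hle : Φ.range ≤ stabG [] 8388611 := by
    rintro _ ⟨x, rfl⟩
    obtain ⟨A, rfl⟩ := QuotientGroup.mk_surjective x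
    refine SpecialLinearGroup.diagonal_transvection_induction'
      (fun A => Φ A ∈ stabG [] 8388611) A ?_ ?_ ?_
    · intro i j hij c hc
      refine hmem _ _ ?_ (InH.nth le32 (fun p hp => I_tab21 p (List.mem_append_right _ hp))
        (12 * i + 4 * j + c.enc))
      rw [SpecialLinearGroup.diag2n_coe, F4.inv_eq_sq]
      exact actsD21 i j c hij hc
    · intro i j hij c
      exact hmem _ _ (actsT21 i j c hij)
        (InH.nth le32 (fun p hp => I_tab21 p (List.mem_append_left _ hp)) _)
    · intro A B hA hB
      rw [QuotientGroup.mk_mul, map_mul]
      exact Subgroup.mul_mem _ hA hB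
  refine ⟨Φ, hΦ, le_antisymm hle ?_⟩
  refine (chain_spec (hle.trans (stabG_le_M24 _ _)) chainL34
    (InH.of_slp le32 progL34 (L := [nth (idc 5 24) tabT21 5, nth (idc 5 24) tabT21 21, nth (idc 5 24) tabT21 26])
      (fun p hp => ?_) (by decide +kernel)) [] 8388611 20160 (by norm_num) (by decide +kernel)).2
  simp only [List.mem_cons, List.not_mem_nil, or_false] at hp
  rcases hp with rfl | rfl | rfl
  · exact ⟨_, ⟨_, rfl⟩, hR (SpecialLinearGroup.transvection (i := 0) (j := 1) (by decide) (F4.dec 1)) _
      (actsT21 0 1 (F4.dec 1) (by decide))⟩
  · exact ⟨_, ⟨_, rfl⟩, hR (SpecialLinearGroup.transvection (i := 1) (j := 2) (by decide) (F4.dec 1)) _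
      (actsT21 1 2 (F4.dec 1) (by decide))⟩
  · exact ⟨_, ⟨_, rfl⟩, hR (SpecialLinearGroup.transvection (i := 2) (j := 0) (by decide) (F4.dec 2)) _
      (actsT21 2 0 (F4.dec 2) (by decide))⟩

theorem stabG_three_equiv_psl {F : Type*} [Field F] [Fintype F] (hF : Fintype.card F = 4) :
    Nonempty (stabG [] 8388611 ≃* ProjectiveSpecialLinearGroup (Fin 3) F) := by
  obtain ⟨Φ, hΦ, h⟩ := exists_psl34_hom
  obtain ⟨e⟩ := nonempty_psl_congr_of_card (ι := Fin 3) (card_F4.trans hF.symm)
  exact ⟨((MulEquiv.subgroupCongr h.symm).trans (MonoidHom.ofInjective hΦ).symm).trans e⟩

end Cfsg.Lib.Golay
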